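/-
Four-groups, `A₄` and `A₅` inside a finite group, from a few relations.
-/
import Cfsg.Agent.S0228
import Cfsg.Agent.Lib.SL2.Dickson.Sixty

set_option autoImplicit false

namespace CfsgLib.PSLFours

open scoped Pointwise

variable {G : Type*} [Group G]

/-- Two distinct commuting involutions. -/
structure IsFourPair (x y : G) : Prop where
  sqx : x * x = 1
  sqy : y * y = 1
  nex : x ≠ 1
  ney : y ≠ 1
  ne : x ≠ y
  comm : x * y = y * x

namespace IsFourPair

variable {x y : G} (h : IsFourPair x y)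
include h

lemma swap : IsFourPair y x := ⟨h.sqy, h.sqx, h.ney, h.nex, h.ne.symm, h.comm.symm⟩

lemma mul_ne_one : x * y ≠ 1 := fun e => h.ne (by
  calc x = x * (y * y) := by rw [h.sqy, mul_one]
    _ = x * y * y := (mul_assoc _ _ _).symm
    _ = y := by rw [e, one_mul])

lemma mul_ne_left : x * y ≠ x := fun e => h.ney (mul_eq_left.1 e)

lemma mul_ne_right : x * y ≠ y := fun e => h.nex (mul_eq_right.1 e)

end IsFourPair

/-- The four-group of a pair, given by its elements. -/
def fourSub {x y : G} (h : IsFourPair x y) : Subgroup G where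
  carrier := {z | z = 1 ∨ z = x ∨ z = y ∨ z = x * y}
  one_mem' := Or.inl rfl
  mul_mem' := by
    have c := h.comm
    have a1 : ∀ z : G, x * (x * z) = z := fun z => by rw [← mul_assoc, h.sqx, one_mul]
    have a2 : ∀ z : G, y * (y * z) = z := fun z => by rw [← mul_assoc, h.sqy, one_mul]
    rintro a b (e | e | e | e) (e' | e' | e' | e') <;> rw [e, e', Set.mem_setOf_eq] <;>
      simp [mul_assoc, h.sqx, h.sqy, a1, a2, ← c, show y * (x * y) = x from by
        rw [c, a2], show y * x = x * y from c.symm]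
  inv_mem' := by
    rintro a (e | e | e | e) <;> rw [e]
    · simp
    · exact Or.inr (Or.inl (inv_eq_of_mul_eq_one_right h.sqx))
    · exact Or.inr (Or.inr (Or.inl (inv_eq_of_mul_eq_one_right h.sqy)))
    · refine Or.inr (Or.inr (Or.inr ?_))
      rw [mul_inv_rev, inv_eq_of_mul_eq_one_right h.sqx, inv_eq_of_mul_eq_one_right h.sqy, h.comm]

variable {x y : G} (h : IsFourPair x y)

lemma mem_fourSub {z : G} : z ∈ fourSub h ↔ z = 1 ∨ z = x ∨ z = y ∨ z = x * y := Iff.rfl

lemma left_mem : x ∈ fourSub h := Or.inr (Or.inl rfl)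

lemma right_mem : y ∈ fourSub h := Or.inr (Or.inr (Or.inl rfl))

lemma card_fourSub : Nat.card (fourSub h) = 4 := by
  classical
  have hs : ((fourSub h : Subgroup G) : Set G) = (({1, x, y, x * y} : Finset G) : Set G) := by
    ext z; simp [mem_fourSub]
  rw [← SetLike.coe_sort_coe, Nat.card_coe_set_eq, hs, Set.ncard_coe_finset,
    Finset.card_insert_of_notMem, Finset.card_insert_of_notMem, Finset.card_insert_of_notMem,
    Finset.card_singleton]
  · simp [h.mul_ne_right.symm]
  · simp [h.ne, h.mul_ne_left.symm]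
  · simp [h.nex.symm, h.ney.symm, h.mul_ne_one.symm]

lemma fourSub_le {H : Subgroup G} (hx : x ∈ H) (hy : y ∈ H) : fourSub h ≤ H := by
  rintro z (e | e | e | e) <;> rw [e]
  exacts [H.one_mem, hx, hy, H.mul_mem hx hy]

lemma sq_eq_one_of_mem {z : G} (hz : z ∈ fourSub h) : z * z = 1 := by
  rcases hz with e | e | e | e <;> rw [e]
  · simp
  · exact h.sqx
  · exact h.sqy
  · rw [mul_assoc, ← mul_assoc y, ← h.comm, mul_assoc x, h.sqy, mul_one, h.sqx]

lemma isKleinFour_fourSub : IsKleinFour (fourSub h) := by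
  refine ⟨card_fourSub h, ?_⟩
  rcases (Nat.dvd_prime Nat.prime_two).1 (Monoid.exponent_dvd_of_forall_pow_eq_one
    (G := fourSub h) (n := 2) fun g => Subtype.ext (by
      simpa [sq] using sq_eq_one_of_mem h g.2)) with h1 | h2
  · exfalso
    have := Monoid.pow_exponent_eq_one (⟨x, left_mem h⟩ : fourSub h)
    rw [h1, pow_one] at this
    exact h.nex (congrArg Subtype.val this)
  · exact h2

/-- Every four-group comes from a pair. -/
lemma exists_pair (V : Subgroup G) [IsKleinFour V] :
    ∃ x y : G, ∃ h : IsFourPair x y, V = fourSub h := by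
  classical
  haveI : Finite V := Nat.finite_of_card_ne_zero (by rw [IsKleinFour.card_four]; norm_num)
  haveI := Fintype.ofFinite V
  obtain ⟨a, ha⟩ : ∃ a : V, a ≠ 1 := Fintype.exists_ne_of_one_lt_card
    (by rw [← Nat.card_eq_fintype_card, IsKleinFour.card_four]; norm_num) 1
  obtain ⟨b, -, hb⟩ : ∃ b ∈ (Finset.univ : Finset V), b ∉ ({1, a} : Finset V) :=
    Finset.exists_mem_notMem_of_card_lt_card (Finset.card_le_two.trans_lt
      (by rw [Finset.card_univ, ← Nat.card_eq_fintype_card, IsKleinFour.card_four]; norm_num))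
  simp only [Finset.mem_insert, Finset.mem_singleton, not_or] at hb
  have sq : ∀ z : V, (z : G) * z = 1 := fun z => congrArg Subtype.val (IsKleinFour.mul_self z)
  have h : IsFourPair (a : G) (b : G) := ⟨sq a, sq b, by simpa using ha, by simpa using hb.1,
    fun e => hb.2 (Subtype.ext e.symm), by
      calc (a : G) * b = a * b * ((b * a) * (b * a)) := by
            have e := sq (b * a)
            rw [Subgroup.coe_mul] at e
            rw [e, mul_one]
        _ = a * ((b : G) * b) * a * (b * a) := by group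
        _ = b * a := by rw [sq b, mul_one, sq a, one_mul]⟩
  refine ⟨a, b, h, (Subgroup.eq_of_le_of_card_ge ?_ ?_).symm⟩
  · exact fourSub_le h a.2 b.2
  · rw [card_fourSub h, IsKleinFour.card_four]

include h in
/-- A four-pair permuted cyclically by an element of order three gives `A₄`. -/
theorem exists_A4 [Finite G] {u : G} (hu3 : u ^ 3 = 1) (hux : u * x * u⁻¹ = y)
    (huy : u * y * u⁻¹ = x * y) :
    ∃ H : Subgroup G, Nat.card H = 12 ∧ x ∈ H ∧ u ∈ H ∧
      Nonempty (H ≃* alternatingGroup (Fin 4)) := by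
  set V := fourSub h with hV
  have huxy : u * (x * y) * u⁻¹ = x := by
    rw [show u * (x * y) * u⁻¹ = (u * x * u⁻¹) * (u * y * u⁻¹) by group, hux, huy, h.comm,
      ← mul_assoc, h.sqy, one_mul]
  have hu : u ∈ Subgroup.normalizer (V : Set G) := by
    haveI : Finite V := inferInstance
    have hsub : ∀ z ∈ V, u * z * u⁻¹ ∈ V := by
      rintro z (e | e | e | e) <;> rw [e]
      · simp
      · rw [hux]; exact right_mem h
      · rw [huy]; exact Or.inr (Or.inr (Or.inr rfl))
      · rw [huxy]; exact left_mem h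
    refine Subgroup.mem_normalizer_iff.2 fun z => ⟨hsub z, fun hz => ?_⟩
    have h3 : ∀ w : G, u * (u * (u * w * u⁻¹) * u⁻¹) * u⁻¹ = w := fun w => by
      rw [show u * (u * (u * w * u⁻¹) * u⁻¹) * u⁻¹ = u ^ 3 * w * (u ^ 3)⁻¹ by simp only [pow_succ, pow_zero, one_mul, mul_inv_rev, mul_assoc], hu3, one_mul,
        inv_one, mul_one]
    rw [← h3 z]
    exact hsub _ (hsub _ hz)
  have huV : u ∉ V := fun hm => by
    have h2 := sq_eq_one_of_mem h hm
    have : u = 1 := by
      calc u = u ^ 3 := by rw [pow_succ, sq, h2, one_mul]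
        _ = 1 := hu3
    rw [this] at hux
    exact h.ne (by simpa using hux)
  have hu1 : u ≠ 1 := fun e => huV (e ▸ V.one_mem)
  have horder : orderOf u = 3 := orderOf_eq_prime hu3 hu1
  set W := Subgroup.zpowers u
  have hWc : Nat.card W = 3 := by rw [Nat.card_zpowers, horder]
  have hle : W ≤ Subgroup.normalizer (V : Set G) := Subgroup.zpowers_le.2 hu
  have hdisj : V ⊓ W = ⊥ := Subgroup.inf_eq_bot_of_coprime (by
    rw [card_fourSub h, hWc]; norm_num)
  have hcoe : ((V ⊔ W : Subgroup G) : Set G) = (V : Set G) * (W : Set G) :=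
    Subgroup.coe_mul_of_right_le_normalizer_left V W hle
  have hbij : Function.Bijective (fun p : V × W => (⟨p.1.1 * p.2.1,
      Subgroup.mul_mem_sup p.1.2 p.2.2⟩ : (V ⊔ W : Subgroup G))) := by
    refine ⟨fun p p' e => ?_, fun z => ?_⟩
    · exact Subgroup.mul_injective_of_disjoint (disjoint_iff.2 hdisj) (congrArg Subtype.val e)
    · obtain ⟨v, hv, w, hw, e⟩ := Set.mem_mul.1 (hcoe ▸ z.2 : (z : G) ∈ (V : Set G) * (W : Set G))
      exact ⟨(⟨v, hv⟩, ⟨w, hw⟩), Subtype.ext e⟩
  have hcard : Nat.card (V ⊔ W : Subgroup G) = 12 := by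
    rw [← Nat.card_congr (Equiv.ofBijective _ hbij), Nat.card_prod, card_fourSub h, hWc]
  refine ⟨V ⊔ W, hcard, Subgroup.mem_sup_left (left_mem h),
    Subgroup.mem_sup_right (Subgroup.mem_zpowers u), Cfsg.Agent.S0228.aux hcard ?_⟩
  intro z hz hc
  obtain ⟨⟨⟨v, hv⟩, ⟨w, hw⟩⟩, rfl⟩ := hbij.2 z
  have e1 : u * (v * w) = v * w * u := congrArg Subtype.val
    (Subgroup.mem_center_iff.1 hc ⟨u, Subgroup.mem_sup_right (Subgroup.mem_zpowers u)⟩)
  have e2 : w * u = u * w := by
    obtain ⟨i, rfl⟩ := Subgroup.mem_zpowers_iff.1 hw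
    exact (Commute.refl u).zpow_left i
  have e3 : u * v * u⁻¹ = v := by
    rw [mul_assoc v, e2, ← mul_assoc, ← mul_assoc] at e1
    rw [mul_right_cancel e1, mul_inv_cancel_right]
  have hv1 : v = 1 := by
    rcases hv with e | e | e | e <;> (try rw [e] at e3)
    · exact e
    · exact absurd (hux.symm.trans e3) h.ne.symm
    · exact absurd (huy.symm.trans e3) h.mul_ne_right
    · exact absurd (huxy.symm.trans e3) h.mul_ne_left.symm
  have h3 : orderOf w ∣ 3 := by
    have := orderOf_dvd_natCard (⟨w, hw⟩ : W)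
    rwa [hWc, Subgroup.orderOf_mk] at this
  rw [Subgroup.orderOf_mk] at hz
  simp only [hv1, one_mul] at hz
  rw [hz] at h3
  norm_num at h3

include h in
/-- `A₅` from a subgroup of order at most 60. -/
theorem A5_of_card_le [Finite G] {u : G} (hu3 : u ^ 3 = 1) (hux : u * x * u⁻¹ = y)
    (huy : u * y * u⁻¹ = x * y) (hfix : ∀ z : G, z ^ 5 = 1 → Commute z x → Commute z y → z = 1)
    (H : Subgroup G) (hle : Nat.card H ≤ 60) (hx : x ∈ H) (hu : u ∈ H) {z₀ : G} (hz₀ : z₀ ∈ H)
    (hz5 : orderOf z₀ = 5) : Nonempty (H ≃* alternatingGroup (Fin 5)) := by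
  obtain ⟨K, hK, hxK, huK, -⟩ := exists_A4 h hu3 hux huy
  have hy : y ∈ H := hux ▸ H.mul_mem (H.mul_mem hx hu |> fun _ => H.mul_mem hu hx) (H.inv_mem hu)
  have h4 : 4 ∣ Nat.card H := by
    rw [← card_fourSub h]
    exact Subgroup.card_dvd_of_le (fourSub_le h hx hy)
  have h3 : 3 ∣ Nat.card H := by
    have hu1 : u ≠ 1 := fun e => h.ne (by rw [e] at hux; simpa using hux)
    rw [← orderOf_eq_prime (p := 3) hu3 hu1, ← Subgroup.orderOf_mk u hu]
    exact orderOf_dvd_natCard _
  have h5 : 5 ∣ Nat.card H := by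
    rw [← hz5, ← Subgroup.orderOf_mk z₀ hz₀]
    exact orderOf_dvd_natCard _
  have h60 : Nat.card H = 60 := by
    have h12 : 12 ∣ Nat.card H := Nat.Coprime.mul_dvd_of_dvd_of_dvd (by norm_num) h4 h3
    have : 60 ∣ Nat.card H := Nat.Coprime.mul_dvd_of_dvd_of_dvd (by norm_num) h12 h5
    have := Nat.le_of_dvd Nat.card_pos this
    omega
  refine CfsgLib.SL2.Dickson.Sixty.nonempty_mulEquiv_alternating_five h60 fun R hR hn => ?_
  have : Fact (Nat.Prime 5) := ⟨Nat.prime_five⟩
  have hRc : IsCyclic R := isCyclic_of_prime_card hR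
  -- the conjugation action on `R` is through an abelian group
  let φ : H →* MulAut R := MulAut.conjNormal
  have hcomm : ∀ a b : H, φ (a * b * a⁻¹ * b⁻¹) = 1 := fun a b => by
    simp only [map_mul, map_inv]
    have : φ a * φ b = φ b * φ a := by
      refine MulEquiv.ext fun r => ?_
      obtain ⟨g, hg⟩ := hRc.exists_generator
      obtain ⟨i, hi⟩ := Subgroup.mem_zpowers_iff.1 (hg (φ a g))
      obtain ⟨j, hj⟩ := Subgroup.mem_zpowers_iff.1 (hg (φ b g))
      obtain ⟨k, rfl⟩ := Subgroup.mem_zpowers_iff.1 (hg r)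
      simp only [MulAut.mul_apply, map_zpow]
      rw [← hj, ← hi]
      simp only [map_zpow]
      rw [← hi, ← hj, ← zpow_mul, ← zpow_mul, ← zpow_mul, ← zpow_mul]
      congr 1
      ring
    rw [this, mul_inv_cancel_right, mul_inv_cancel]
  set X : H := ⟨x, hx⟩
  set Y : H := ⟨y, hy⟩
  set U : H := ⟨u, hu⟩
  have hX : φ X = 1 := by
    have e : U * Y * U⁻¹ * Y⁻¹ = X := Subtype.ext (by
      show u * y * u⁻¹ * y⁻¹ = x
      rw [huy, mul_inv_cancel_right])
    rw [← e]; exact hcomm U Y
  have hY : φ Y = 1 := by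
    have e : Y = U * X * U⁻¹ * X⁻¹ * X := Subtype.ext (by
      show y = u * x * u⁻¹ * x⁻¹ * x
      rw [hux, inv_mul_cancel_right])
    rw [e, map_mul, hcomm, hX, one_mul]
  obtain ⟨r, hr⟩ := exists_prime_orderOf_dvd_card' (G := R) 5 (by rw [hR])
  have key : ∀ W : H, φ W = 1 → Commute (((r : H) : G)) (W : G) := fun W hW => by
    have e := congrArg (fun f : MulAut R => (((f r : R) : H) : G)) hW
    simp only [φ, MulAut.conjNormal_apply, MulAut.one_apply, Subgroup.coe_mul, Subgroup.coe_inv] at e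
    exact (mul_inv_eq_iff_eq_mul.1 e).symm
  have h1 := hfix ((r : H) : G) (by
    have := pow_orderOf_eq_one r
    rw [hr] at this
    exact congrArg (fun t : R => ((t : H) : G)) this) (key X hX) (key Y hY)
  have : r = 1 := Subtype.ext (Subtype.ext h1)
  rw [this, orderOf_one] at hr
  norm_num at hr

end CfsgLib.PSLFours
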