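/-
Anticommuting pairs of square roots of `-1` in `SL₂` and the four-groups of `PSL₂`, odd `q`.
-/
import Cfsg.Agent.Lib.SL2.Normalizer
import Cfsg.Agent.Lib.SL2.Card
import Cfsg.Agent.Lib.Parabolic.PSLFours.Recognition

set_option autoImplicit false

open Matrix
open scoped MatrixGroups

namespace CfsgLib.PSLFours

open CfsgLib.SL2

variable {F : Type*} [Field F]

local notation "M₂" => Matrix (Fin 2) (Fin 2) F
local notation "SL₂F" => Matrix.SpecialLinearGroup (Fin 2) F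
local notation "PSL₂F" => Matrix.ProjectiveSpecialLinearGroup (Fin 2) F

/-- Anticommuting square roots of `-1`. -/
structure IsQP (a b : Matrix.SpecialLinearGroup (Fin 2) F) : Prop where
  sqa : a * a = -1
  sqb : b * b = -1
  anti : b * a = -(a * b)

/-- Quaternion multiplication on coordinate quadruples. -/
def qmul {R : Type*} [Add R] [Sub R] [Mul R] (x y : R × R × R × R) : R × R × R × R :=
  (x.1 * y.1 - x.2.1 * y.2.1 - x.2.2.1 * y.2.2.1 - x.2.2.2 * y.2.2.2,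
    x.1 * y.2.1 + x.2.1 * y.1 + x.2.2.1 * y.2.2.2 - x.2.2.2 * y.2.2.1,
    x.1 * y.2.2.1 - x.2.1 * y.2.2.2 + x.2.2.1 * y.1 + x.2.2.2 * y.2.1,
    x.1 * y.2.2.2 + x.2.1 * y.2.2.1 - x.2.2.1 * y.2.1 + x.2.2.2 * y.1)

/-- The sum of the squares of the coordinates. -/
def qnorm (x : F × F × F × F) : F := x.1 ^ 2 + x.2.1 ^ 2 + x.2.2.1 ^ 2 + x.2.2.2 ^ 2

/-- The element with given coordinates in the basis `1, a, b, ab`. -/
def quat (a b : Matrix.SpecialLinearGroup (Fin 2) F) (x : F × F × F × F) :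
    Matrix (Fin 2) (Fin 2) F :=
  x.1 • 1 + x.2.1 • (a : M₂) + x.2.2.1 • (b : M₂) + x.2.2.2 • ((a : M₂) * (b : M₂))

lemma tr_eq_zero_of_sq {a : SL₂F} (h : a * a = -1) : tr a = 0 := by
  have h1 := mul_self_eq a
  rw [← Matrix.SpecialLinearGroup.coe_mul, h, Matrix.SpecialLinearGroup.coe_neg,
    Matrix.SpecialLinearGroup.coe_one] at h1
  have h2 : tr a • (a : M₂) = 0 := by
    calc tr a • (a : M₂) = (tr a • (a : M₂) - 1) + 1 := (sub_add_cancel _ _).symm
      _ = -1 + 1 := by rw [← h1]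
      _ = 0 := neg_add_cancel _
  refine (smul_eq_zero.mp h2).resolve_right fun h0 => ?_
  have := Matrix.SpecialLinearGroup.det_coe a
  rw [h0] at this; simp at this

lemma inv_of_sq {a : SL₂F} (h : a * a = -1) : a⁻¹ = -a :=
  inv_eq_of_mul_eq_one_right (Subtype.ext (by
    rw [Matrix.SpecialLinearGroup.coe_mul, Matrix.SpecialLinearGroup.coe_neg, mul_neg,
      ← Matrix.SpecialLinearGroup.coe_mul, h]; simp))

namespace IsQP

variable {a b : Matrix.SpecialLinearGroup (Fin 2) F} (h : IsQP a b)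
include h

lemma mA : (a : M₂) * (a : M₂) = -1 := by
  rw [← Matrix.SpecialLinearGroup.coe_mul, h.sqa]; simp

lemma mB : (b : M₂) * (b : M₂) = -1 := by
  rw [← Matrix.SpecialLinearGroup.coe_mul, h.sqb]; simp

lemma mBA : (b : M₂) * (a : M₂) = -((a : M₂) * (b : M₂)) := by
  rw [← Matrix.SpecialLinearGroup.coe_mul, h.anti]; simp

lemma mAA' (x : M₂) : (a : M₂) * ((a : M₂) * x) = -x := by rw [← mul_assoc, h.mA, neg_one_mul]

lemma mBB' (x : M₂) : (b : M₂) * ((b : M₂) * x) = -x := by rw [← mul_assoc, h.mB, neg_one_mul]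

lemma mBA' (x : M₂) : (b : M₂) * ((a : M₂) * x) = -((a : M₂) * ((b : M₂) * x)) := by
  rw [← mul_assoc, h.mBA, neg_mul, mul_assoc]

theorem quat_mul (x y : F × F × F × F) : quat a b x * quat a b y = quat a b (qmul x y) := by
  simp only [quat, qmul, add_mul, mul_add, smul_mul_assoc, mul_smul_comm, smul_smul, one_mul,
    mul_one, mul_assoc, h.mA, h.mB, h.mBA, h.mAA', h.mBB', h.mBA', mul_neg, smul_neg, neg_neg]
  module

theorem det_quat (x : F × F × F × F) : (quat a b x).det = qnorm x := by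
  obtain ⟨x0, x1, x2, x3⟩ := x
  have ta : tr a = 0 := tr_eq_zero_of_sq h.sqa
  have tb : tr b = 0 := tr_eq_zero_of_sq h.sqb
  have e := h.quat_mul (0, x1, x2, x3) (0, x1, x2, x3)
  have e00 := congrFun (congrFun e 0) 0
  have hba := h.mBA
  have c00 := congrFun (congrFun hba 0) 0
  have c11 := congrFun (congrFun hba 1) 1
  simp [Matrix.mul_apply, Fin.sum_univ_two] at c00 c11
  simp [quat, qmul, Matrix.mul_apply, Fin.sum_univ_two] at e00
  simp only [tr] at ta tb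
  rw [det_fin_two]
  simp [quat, qnorm, Matrix.mul_apply, Fin.sum_univ_two]
  have t3 : ((a : M₂) 0 0 * (b : M₂) 0 0 + (a : M₂) 0 1 * (b : M₂) 1 0)
      + ((a : M₂) 1 0 * (b : M₂) 0 1 + (a : M₂) 1 1 * (b : M₂) 1 1) = 0 := by
    by_cases h2 : (2 : F) = 0
    · linear_combination c00 - ((a : M₂) 0 0 * (b : M₂) 0 0) * h2
        + ((b : M₂) 1 1) * ta - ((a : M₂) 0 0) * tb + ((a : M₂) 0 0 * (b : M₂) 0 0) * h2
    · have : (2 : F) * (((a : M₂) 0 0 * (b : M₂) 0 0 + (a : M₂) 0 1 * (b : M₂) 1 0)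
          + ((a : M₂) 1 0 * (b : M₂) 0 1 + (a : M₂) 1 1 * (b : M₂) 1 1)) = 0 := by
        linear_combination c00 + c11
      exact (mul_eq_zero.1 this).resolve_left h2
  linear_combination -e00
    + (x0 + x1 * (a : M₂) 0 0 + x2 * (b : M₂) 0 0 + x3 * ((a : M₂) 0 0 * (b : M₂) 0 0
      + (a : M₂) 0 1 * (b : M₂) 1 0)) * (x1 * ta + x2 * tb + x3 * t3)

end IsQP

/-- A unit quaternion as an element of `SL₂`. -/
def IsQP.mk' {a b : Matrix.SpecialLinearGroup (Fin 2) F} (h : IsQP a b) (x : F × F × F × F)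
    (hx : qnorm x = 1) : Matrix.SpecialLinearGroup (Fin 2) F :=
  ⟨quat a b x, (h.det_quat x).trans hx⟩

section Odd

variable (h2 : (2 : F) ≠ 0)
include h2

lemma notMem_center_of_sq {a : SL₂F} (h : a * a = -1) : a ∉ Subgroup.center SL₂F :=
  notMem_center_of_tr (by
    rw [tr_eq_zero_of_sq h, show (4 : F) = 2 * 2 by norm_num, zero_pow two_ne_zero]
    exact (mul_ne_zero h2 h2).symm)

lemma neg_ne_self (g : SL₂F) : -g ≠ g := fun e => neg_one_ne_one h2 (by
  have h := congrArg (· * g⁻¹) e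
  simpa using h)

lemma eq_one_or_neg_one_of_center {g : SL₂F} (hg : g ∈ Subgroup.center SL₂F) : g = 1 ∨ g = -1 := by
  have : g ∈ ({1, -1} : Set SL₂F) := by rw [← center_eq]; exact hg
  simpa using this

lemma IsQP.mem_center_of_commute {a b g : SL₂F} (h : IsQP a b) (ga : g * a = a * g)
    (gb : g * b = b * g) : g ∈ Subgroup.center SL₂F := by
  by_contra hg
  have hga : g ∈ Subgroup.centralizer ({a} : Set SL₂F) :=
    Subgroup.mem_centralizer_singleton_iff.2 ga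
  have hb : b ∈ Subgroup.centralizer ({g} : Set SL₂F) :=
    Subgroup.mem_centralizer_singleton_iff.2 gb.symm
  rw [centralizer_eq_of_mem (notMem_center_of_sq h2 h.sqa) hga hg,
    Subgroup.mem_centralizer_singleton_iff] at hb
  exact neg_ne_self h2 (a * b) (h.anti.symm.trans hb)

omit h2 in
/-- Simultaneous conjugacy of pairs. -/
def Conj2 (p r : Matrix.SpecialLinearGroup (Fin 2) F × Matrix.SpecialLinearGroup (Fin 2) F) : Prop :=
  ∃ g : Matrix.SpecialLinearGroup (Fin 2) F, g * p.1 * g⁻¹ = r.1 ∧ g * p.2 * g⁻¹ = r.2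

omit h2 in
lemma Conj2.refl (p : SL₂F × SL₂F) : Conj2 p p := ⟨1, by simp, by simp⟩

omit h2 in
lemma Conj2.trans {p r s : SL₂F × SL₂F} (h : Conj2 p r) (h' : Conj2 r s) : Conj2 p s := by
  obtain ⟨g, h1, h3⟩ := h
  obtain ⟨k, k1, k3⟩ := h'
  exact ⟨k * g, by rw [← k1, ← h1]; group, by rw [← k3, ← h3]; group⟩

omit h2 in
lemma Conj2.symm {p r : SL₂F × SL₂F} (h : Conj2 p r) : Conj2 r p := by
  obtain ⟨g, h1, h3⟩ := h
  exact ⟨g⁻¹, by rw [← h1]; group, by rw [← h3]; group⟩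

omit h2 in
lemma conj_of_mul {g x y : SL₂F} (e : g * x = y * g) : g * x * g⁻¹ = y := by
  rw [e, mul_inv_cancel_right]

omit h2 in
lemma conj_self (g : SL₂F) : g * g * g⁻¹ = g := mul_inv_cancel_right g g

omit h2 in
lemma IsQP.swap {a b : SL₂F} (h : IsQP a b) : IsQP b a :=
  ⟨h.sqb, h.sqa, by rw [h.anti, neg_neg]⟩

omit h2 in
lemma IsQP.neg_left {a b : SL₂F} (h : IsQP a b) : IsQP (-a) b :=
  ⟨by rw [neg_mul_neg, h.sqa], h.sqb, by rw [mul_neg, h.anti, neg_mul]⟩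

omit h2 in
lemma IsQP.neg_right {a b : SL₂F} (h : IsQP a b) : IsQP a (-b) :=
  h.swap.neg_left.swap

omit h2 in
lemma IsQP.conj2_neg_right {a b : SL₂F} (h : IsQP a b) : Conj2 (a, b) (a, -b) :=
  ⟨a, conj_self a, conj_of_mul (by rw [neg_mul, h.anti, neg_neg])⟩

omit h2 in
lemma IsQP.conj2_neg_left {a b : SL₂F} (h : IsQP a b) : Conj2 (a, b) (-a, b) :=
  ⟨b, conj_of_mul (by rw [neg_mul, h.anti]), conj_self b⟩

omit h2 in
lemma IsQP.conj2_signs {a b a' b' : SL₂F} (h : IsQP a b) (ha : a' = a ∨ a' = -a)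
    (hb : b' = b ∨ b' = -b) : Conj2 (a, b) (a', b') := by
  rcases ha with rfl | rfl <;> rcases hb with rfl | rfl
  · exact Conj2.refl _
  · exact h.conj2_neg_right
  · exact h.conj2_neg_left
  · exact h.conj2_neg_left.trans h.neg_left.conj2_neg_right

/-- The element `(1 + a + b + ab)/2`. -/
def cyc {a b : SL₂F} (h : IsQP a b) : SL₂F :=
  h.mk' ((2 : F)⁻¹, (2 : F)⁻¹, (2 : F)⁻¹, (2 : F)⁻¹) (by simp [qnorm]; field_simp; norm_num)

omit h2 in
lemma coe_eq_quat {a b : SL₂F} : ((a : M₂) = quat a b (0, 1, 0, 0)) ∧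
    ((b : M₂) = quat a b (0, 0, 1, 0)) ∧ ((a : M₂) * (b : M₂) = quat a b (0, 0, 0, 1)) ∧
    (1 : M₂) = quat a b (1, 0, 0, 0) ∧ -(1 : M₂) = quat a b (-1, 0, 0, 0) := by
  refine ⟨?_, ?_, ?_, ?_, ?_⟩ <;> simp [quat]

lemma cyc_a {a b : SL₂F} (h : IsQP a b) : cyc h2 h * a * (cyc h2 h)⁻¹ = b := by
  refine conj_of_mul (Subtype.ext ?_)
  obtain ⟨e1, e2, -⟩ := coe_eq_quat (a := a) (b := b)
  show quat a b _ * (a : M₂) = (b : M₂) * quat a b _
  conv_lhs => arg 2; rw [e1]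
  conv_rhs => arg 1; rw [e2]
  rw [h.quat_mul, h.quat_mul]
  simp [qmul]

lemma cyc_b {a b : SL₂F} (h : IsQP a b) : cyc h2 h * b * (cyc h2 h)⁻¹ = a * b := by
  refine conj_of_mul (Subtype.ext ?_)
  obtain ⟨-, e2, e3, -⟩ := coe_eq_quat (a := a) (b := b)
  show quat a b _ * (b : M₂) = (a : M₂) * (b : M₂) * quat a b _
  conv_lhs => arg 2; rw [e2]
  conv_rhs => arg 1; rw [e3]
  rw [h.quat_mul, h.quat_mul]
  simp [qmul]

lemma cyc_cube {a b : SL₂F} (h : IsQP a b) : cyc h2 h ^ 3 = -1 := by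
  refine Subtype.ext ?_
  obtain ⟨-, -, -, -, e4⟩ := coe_eq_quat (a := a) (b := b)
  rw [Matrix.SpecialLinearGroup.coe_pow, Matrix.SpecialLinearGroup.coe_neg,
    Matrix.SpecialLinearGroup.coe_one, e4, pow_succ, pow_two]
  show quat a b _ * quat a b _ * quat a b _ = _
  rw [h.quat_mul, h.quat_mul]
  simp only [qmul]
  congr 1
  simp only [Prod.mk.injEq]
  refine ⟨?_, ?_, ?_, ?_⟩ <;> field_simp <;> ring

lemma IsQP.conj2_cycle {a b : SL₂F} (h : IsQP a b) : Conj2 (a, b) (b, a * b) :=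
  ⟨cyc h2 h, cyc_a h2 h, cyc_b h2 h⟩

omit h2 in
lemma IsQP.conj2_swap {a b : SL₂F} (h : IsQP a b) (hs : IsSquare (2 : F)) (h2 : (2 : F) ≠ 0) :
    Conj2 (a, b) (b, a) := by
  obtain ⟨s, hs⟩ := hs
  have hs0 : s ≠ 0 := fun e => h2 (by rw [hs, e, mul_zero])
  refine ⟨h.mk' (0, s⁻¹, s⁻¹, 0) ?_, ?_, ?_⟩
  · simp [qnorm]
    field_simp
    linear_combination hs
  all_goals
    refine conj_of_mul (Subtype.ext ?_)
    obtain ⟨e1, e2, -⟩ := coe_eq_quat (a := a) (b := b)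
  · show quat a b _ * (a : M₂) = (b : M₂) * quat a b _
    conv_lhs => arg 2; rw [e1]
    conv_rhs => arg 1; rw [e2]
    rw [h.quat_mul, h.quat_mul]
    simp [qmul]
  · show quat a b _ * (b : M₂) = (a : M₂) * quat a b _
    conv_lhs => arg 2; rw [e2]
    conv_rhs => arg 1; rw [e1]
    rw [h.quat_mul, h.quat_mul]
    simp [qmul]

lemma IsQP.isSquare_two_of_conj2_swap {a b : SL₂F} (h : IsQP a b) (hc : Conj2 (a, b) (b, a)) :
    IsSquare (2 : F) := by
  obtain ⟨g, g1, g2⟩ := hc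
  have e1 : (g : M₂) * (a : M₂) = (b : M₂) * (g : M₂) := by
    rw [← Matrix.SpecialLinearGroup.coe_mul, ← Matrix.SpecialLinearGroup.coe_mul,
      mul_inv_eq_iff_eq_mul.1 g1]
  have e2 : (g : M₂) * (b : M₂) = (a : M₂) * (g : M₂) := by
    rw [← Matrix.SpecialLinearGroup.coe_mul, ← Matrix.SpecialLinearGroup.coe_mul,
      mul_inv_eq_iff_eq_mul.1 g2]
  set X := quat a b (0, 1, 1, 0) with hX
  have hXdet : X.det = 2 := by rw [hX, h.det_quat, qnorm]; norm_num
  have hXab : X = (a : M₂) + (b : M₂) := by simp [hX, quat]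
  have hns : ¬ IsScalarMat X := by
    intro hsc
    obtain ⟨c, hc⟩ := (isScalarMat_iff X).1 hsc
    have e := congrArg (fun M : M₂ => M * (a : M₂) - (a : M₂) * M) hc
    simp only [hXab, add_mul, mul_add, smul_mul_assoc, mul_smul_comm, one_mul, mul_one, sub_self,
      h.mA, h.mBA] at e
    have e' : (2 : F) • ((a : M₂) * (b : M₂)) = 0 := by
      linear_combination (norm := module) -e
    have h0 := congrArg Matrix.det ((smul_eq_zero.1 e').resolve_left h2)
    simp [Matrix.det_mul] at h0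
  obtain ⟨l, m, hgX⟩ := (commute_iff_exists (B := (g : M₂)) hns).1 (by
    rw [hXab, add_mul, mul_add, e1, e2, add_comm])
  have hl : l = 0 := by
    have h' := e1
    rw [hgX, hXab] at h'
    simp only [add_mul, mul_add, smul_mul_assoc, mul_smul_comm, one_mul, mul_one, h.mA, h.mB,
      h.mBA] at h'
    have e' : l • ((a : M₂) - (b : M₂)) = 0 := by linear_combination (norm := module) h'
    refine (smul_eq_zero.1 e').resolve_right fun e0 => ?_
    have hab : (a : M₂) = (b : M₂) := sub_eq_zero.1 e0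
    have := h.mBA
    rw [← hab, h.mA] at this
    have h00 := congrFun (congrFun this 0) 0
    simp at h00
    exact h2 (by linear_combination -h00)
  have hd := g.det_coe
  rw [hgX, hl, zero_smul, zero_add, Matrix.det_smul, hXdet, Fintype.card_fin] at hd
  exact ⟨m⁻¹, by
    have hm : m ≠ 0 := fun e => by simp [e] at hd
    field_simp
    linear_combination hd⟩

variable [Finite F]

omit [Finite F] in
lemma isQP_of_inverts {a k : SL₂F} (ha : a * a = -1) (hk : k * a * k⁻¹ = a⁻¹) : IsQP a k := by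
  refine ⟨ha, mul_self_eq_neg_one (notMem_center_of_sq h2 ha) hk, ?_⟩
  rw [mul_inv_eq_iff_eq_mul.1 hk, inv_of_sq ha, neg_mul]

/-- There are as many anticommuting pairs as elements of `SL₂`. -/
theorem card_qp : Nat.card {p : SL₂F × SL₂F // IsQP p.1 p.2} = Nat.card SL₂F := by
  set a₀ : SL₂F := companion 0
  have ha₀ : a₀ * a₀ = -1 := by
    refine Subtype.ext ?_
    rw [Matrix.SpecialLinearGroup.coe_mul]
    ext i j
    fin_cases i <;> fin_cases j <;> simp [a₀, companion, Matrix.mul_apply, Fin.sum_univ_two]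
  have ht : tr a₀ ^ 2 ≠ 4 := by
    rw [tr_eq_zero_of_sq ha₀, show (4 : F) = 2 * 2 by norm_num, zero_pow two_ne_zero]
    exact (mul_ne_zero h2 h2).symm
  obtain ⟨k₀, hk₀⟩ := exists_inverting ht
  have hex : ∀ a : SL₂F, a * a = -1 → ∃ s : SL₂F, s * a₀ * s⁻¹ = a := fun a ha =>
    isConj_iff.1 (isConj_of_tr_eq ht (by rw [tr_eq_zero_of_sq ha, tr_eq_zero_of_sq ha₀]))
  classical
  let s : SL₂F → SL₂F := fun a => if ha : a * a = -1 then (hex a ha).choose else 1
  have hs : ∀ a, a * a = -1 → s a * a₀ * (s a)⁻¹ = a := fun a ha => by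
    simp only [s, dif_pos ha]; exact (hex a ha).choose_spec
  have hsq : ∀ g : SL₂F, (g * a₀ * g⁻¹) * (g * a₀ * g⁻¹) = -1 := fun g => by
    rw [show (g * a₀ * g⁻¹) * (g * a₀ * g⁻¹) = g * (a₀ * a₀) * g⁻¹ by group, ha₀, mul_neg, mul_one,
      neg_mul, mul_inv_cancel]
  have hk₀' : k₀⁻¹ * a₀ * k₀ = a₀⁻¹ := by
    have := congrArg (fun t => (k₀⁻¹ * t * k₀)⁻¹) hk₀
    simpa [mul_assoc] using this.symm
  have hto : ∀ g : SL₂F, (g * k₀ * (s (g * a₀ * g⁻¹))⁻¹) * (g * a₀ * g⁻¹)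
      * (g * k₀ * (s (g * a₀ * g⁻¹))⁻¹)⁻¹ = (g * a₀ * g⁻¹)⁻¹ := by
    intro g
    set a := g * a₀ * g⁻¹
    have e := hs a (hsq g)
    have e' : (s a)⁻¹ * a * s a = a₀ := by
      calc (s a)⁻¹ * a * s a = (s a)⁻¹ * (s a * a₀ * (s a)⁻¹) * s a := by rw [e]
        _ = a₀ := by group
    calc g * k₀ * (s a)⁻¹ * a * (g * k₀ * (s a)⁻¹)⁻¹
        = g * k₀ * ((s a)⁻¹ * a * s a) * k₀⁻¹ * g⁻¹ := by group
      _ = g * (k₀ * a₀ * k₀⁻¹) * g⁻¹ := by rw [e']; group
      _ = a⁻¹ := by rw [hk₀]; simp [a, mul_assoc]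
  have hback : ∀ a k : SL₂F, IsQP a k →
      k * s a * k₀⁻¹ * a₀ * (k * s a * k₀⁻¹)⁻¹ = a := by
    intro a k hp
    have e := hs a hp.sqa
    calc k * s a * k₀⁻¹ * a₀ * (k * s a * k₀⁻¹)⁻¹
        = k * (s a * (k₀⁻¹ * a₀ * k₀) * (s a)⁻¹) * k⁻¹ := by group
      _ = k * (s a * a₀ * (s a)⁻¹)⁻¹ * k⁻¹ := by rw [hk₀']; group
      _ = a := by rw [e, inv_of_sq hp.sqa, mul_neg, hp.anti, neg_neg, mul_inv_cancel_right]
  refine (Nat.card_congr (Equiv.mk
    (fun g : SL₂F => (⟨(g * a₀ * g⁻¹, g * k₀ * (s (g * a₀ * g⁻¹))⁻¹),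
        isQP_of_inverts h2 (hsq g) (hto g)⟩ : {p : SL₂F × SL₂F // IsQP p.1 p.2}))
    (fun p => p.1.2 * s p.1.1 * k₀⁻¹) (fun g => by simp [mul_assoc]) (fun p => ?_))).symm
  obtain ⟨⟨a, k⟩, hp⟩ := p
  refine Subtype.ext (Prod.ext (hback a k hp) ?_)
  show k * s a * k₀⁻¹ * k₀ * (s (k * s a * k₀⁻¹ * a₀ * (k * s a * k₀⁻¹)⁻¹))⁻¹ = k
  rw [hback a k hp]; group

/-- The size of a conjugacy class of pairs. -/
theorem card_conj2 {a b : SL₂F} (h : IsQP a b) :
    Nat.card {p : SL₂F × SL₂F // Conj2 (a, b) p} = Nat.card PSL₂F := by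
  have hfib : ∀ g g' : SL₂F, (g * a * g⁻¹ = g' * a * g'⁻¹ ∧ g * b * g⁻¹ = g' * b * g'⁻¹) ↔
      g⁻¹ * g' ∈ Subgroup.center SL₂F := by
    intro g g'
    constructor
    · rintro ⟨e1, e2⟩
      refine h.mem_center_of_commute h2 ?_ ?_
      · calc g⁻¹ * g' * a = g⁻¹ * (g' * a * g'⁻¹) * g' := by group
          _ = a * (g⁻¹ * g') := by rw [← e1]; group
      · calc g⁻¹ * g' * b = g⁻¹ * (g' * b * g'⁻¹) * g' := by group
          _ = b * (g⁻¹ * g') := by rw [← e2]; group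
    · intro hc
      have e := Subgroup.mem_center_iff.1 hc
      constructor
      · calc g * a * g⁻¹ = g * (a * (g⁻¹ * g')) * g'⁻¹ := by group
          _ = g' * a * g'⁻¹ := by rw [e a]; group
      · calc g * b * g⁻¹ = g * (b * (g⁻¹ * g')) * g'⁻¹ := by group
          _ = g' * b * g'⁻¹ := by rw [e b]; group
  let φ : PSL₂F → {p : SL₂F × SL₂F // Conj2 (a, b) p} := fun z =>
    Quotient.liftOn' z (fun g => ⟨(g * a * g⁻¹, g * b * g⁻¹), g, rfl, rfl⟩) fun g g' hgg => by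
      obtain ⟨e1, e2⟩ := (hfib g g').2 (QuotientGroup.leftRel_apply.1 hgg)
      exact Subtype.ext (Prod.ext e1 e2)
  refine (Nat.card_congr (Equiv.ofBijective φ ⟨?_, ?_⟩)).symm
  · rintro z z'
    induction z using Quotient.inductionOn' with | _ g => ?_
    induction z' using Quotient.inductionOn' with | _ g' => ?_
    intro e
    have e' := congrArg Subtype.val e
    exact Quotient.sound' (QuotientGroup.leftRel_apply.2
      ((hfib g g').1 ⟨congrArg Prod.fst e', congrArg Prod.snd e'⟩))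
  · rintro ⟨p, g, e1, e2⟩
    exact ⟨Quotient.mk'' g, Subtype.ext (Prod.ext e1 e2)⟩

omit [Finite F] in
lemma isQP_of_conj2 {a b : SL₂F} (h : IsQP a b) {p : SL₂F × SL₂F} (hp : Conj2 (a, b) p) :
    IsQP p.1 p.2 := by
  obtain ⟨g, e1, e2⟩ := hp
  simp only at e1 e2
  rw [← e1, ← e2]
  refine ⟨?_, ?_, ?_⟩
  · rw [show g * a * g⁻¹ * (g * a * g⁻¹) = g * (a * a) * g⁻¹ by group, h.sqa]; simp
  · rw [show g * b * g⁻¹ * (g * b * g⁻¹) = g * (b * b) * g⁻¹ by group, h.sqb]; simp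
  · rw [show g * b * g⁻¹ * (g * a * g⁻¹) = g * (b * a) * g⁻¹ by group, h.anti, mul_neg, neg_mul]
    congr 1; group

lemma card_psl_mul_two : Nat.card PSL₂F * 2 = Nat.card SL₂F := by
  have h := Subgroup.card_eq_card_quotient_mul_card_subgroup (Subgroup.center SL₂F)
  rw [center_card_of_odd (F := F) h2] at h
  exact h.symm

/-- Two classes, whichever non-conjugate pairs are taken. -/
theorem conj2_or {a b c d : SL₂F} (h : IsQP a b) (h' : IsQP c d) (hne : ¬ Conj2 (a, b) (c, d))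
    (p : SL₂F × SL₂F) (hp : IsQP p.1 p.2) : Conj2 (a, b) p ∨ Conj2 (c, d) p := by
  classical
  have := Fintype.ofFinite SL₂F
  by_contra hcon
  push Not at hcon
  set A := Finset.univ.filter fun p : SL₂F × SL₂F => Conj2 (a, b) p
  set B := Finset.univ.filter fun p : SL₂F × SL₂F => Conj2 (c, d) p
  set S := Finset.univ.filter fun p : SL₂F × SL₂F => IsQP p.1 p.2
  have hAB : Disjoint A B := Finset.disjoint_filter.2 fun r _ r1 r2 => hne (r1.trans r2.symm)
  have hsub : A ∪ B ⊂ S := by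
    refine Finset.ssubset_iff_subset_ne.2 ⟨?_, fun e => ?_⟩
    · intro r hr
      simp only [A, B, Finset.mem_union, Finset.mem_filter, Finset.mem_univ, true_and] at hr
      simp only [S, Finset.mem_filter, Finset.mem_univ, true_and]
      exact hr.elim (isQP_of_conj2 h2 h) (isQP_of_conj2 h2 h')
    · have hm : p ∈ S := by simp [S, hp]
      rw [← e] at hm
      simp [A, B, hcon.1, hcon.2] at hm
  have := Finset.card_lt_card hsub
  rw [Finset.card_union_of_disjoint hAB] at this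
  have e1 : A.card = Nat.card PSL₂F := by
    rw [← card_conj2 h2 h, Nat.card_eq_fintype_card, Fintype.card_subtype]
  have e2 : B.card = Nat.card PSL₂F := by
    rw [← card_conj2 h2 h', Nat.card_eq_fintype_card, Fintype.card_subtype]
  have e3 : S.card = Nat.card SL₂F := by
    rw [← card_qp h2, Nat.card_eq_fintype_card, Fintype.card_subtype]
  have := card_psl_mul_two h2 (F := F)
  omega

theorem exists_qp : ∃ a b : SL₂F, IsQP a b := by
  have : Nonempty {p : SL₂F × SL₂F // IsQP p.1 p.2} :=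
    (Nat.card_pos_iff.1 (by rw [card_qp h2]; exact Nat.card_pos)).1
  exact ⟨_, _, this.some.2⟩

theorem exists_not_conj2 {a b : SL₂F} (h : IsQP a b) :
    ∃ c d : SL₂F, IsQP c d ∧ ¬ Conj2 (a, b) (c, d) := by
  by_contra hcon
  push Not at hcon
  have e : Nat.card {p : SL₂F × SL₂F // Conj2 (a, b) p} = Nat.card SL₂F := by
    rw [← card_qp h2]
    exact Nat.card_congr (Equiv.subtypeEquivRight fun p =>
      ⟨isQP_of_conj2 h2 h, fun hp => hcon p.1 p.2 hp⟩)
  rw [card_conj2 h2 h] at e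
  have := card_psl_mul_two h2 (F := F)
  have := Nat.card_pos (α := PSL₂F)
  omega

end Odd

end CfsgLib.PSLFours
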