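/-
Four-groups of `PSL₂`, odd `q`, read off from anticommuting pairs in `SL₂`.
-/
import Cfsg.Agent.Lib.Parabolic.PSLFours.Pairs

set_option autoImplicit false

open Matrix
open scoped MatrixGroups

namespace CfsgLib.PSLFours

open CfsgLib.SL2

variable {F : Type*} [Field F]

local notation "SL₂F" => Matrix.SpecialLinearGroup (Fin 2) F
local notation "PSL₂F" => Matrix.ProjectiveSpecialLinearGroup (Fin 2) F

/-- The projection to `PSL₂`. -/
def pr : Matrix.SpecialLinearGroup (Fin 2) F →* Matrix.ProjectiveSpecialLinearGroup (Fin 2) F :=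
  QuotientGroup.mk' (Subgroup.center _)

lemma pr_surjective : Function.Surjective (pr (F := F)) := QuotientGroup.mk'_surjective _

lemma pr_eq_one {g : SL₂F} : pr g = 1 ↔ g = 1 ∨ g = -1 := by
  rw [show pr g = ((g : SL₂F) : PSL₂F) from rfl, QuotientGroup.eq_one_iff, ← SetLike.mem_coe,
    center_eq]
  simp

lemma pr_neg (g : SL₂F) : pr (-g) = pr g := by
  rw [show -g = -1 * g from (neg_one_mul g).symm, map_mul, pr_eq_one.2 (Or.inr rfl), one_mul]

lemma pr_eq_pr {g k : SL₂F} : pr g = pr k ↔ k = g ∨ k = -g := by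
  constructor
  · intro e
    have h : pr (g⁻¹ * k) = 1 := by rw [map_mul, map_inv, e, inv_mul_cancel]
    rcases pr_eq_one.1 h with h | h
    · exact Or.inl (inv_mul_eq_one.1 h).symm
    · refine Or.inr ?_
      rw [← mul_inv_cancel_left g k, h, mul_neg, mul_one]
  · rintro (rfl | rfl)
    · rfl
    · rw [pr_neg]

variable (h2 : (2 : F) ≠ 0)
include h2

lemma IsQP.isFourPair {a b : SL₂F} (h : IsQP a b) : IsFourPair (pr a) (pr b) := by
  have hne : ∀ {c : SL₂F}, c * c = -1 → pr c ≠ 1 := fun {c} hc e => by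
    rcases pr_eq_one.1 e with rfl | rfl
    · exact neg_ne_self h2 1 (by simpa using hc.symm)
    · exact neg_ne_self h2 1 (by simpa using hc.symm)
  refine ⟨?_, ?_, hne h.sqa, hne h.sqb, fun e => ?_, ?_⟩
  · rw [← map_mul, h.sqa]; exact pr_eq_one.2 (Or.inr rfl)
  · rw [← map_mul, h.sqb]; exact pr_eq_one.2 (Or.inr rfl)
  · have he : b * a = a * b := by
      rcases pr_eq_pr.1 e with rfl | rfl
      · rfl
      · rw [neg_mul, mul_neg]
    exact neg_ne_self h2 (a * b) (h.anti.symm.trans he)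
  · rw [← map_mul, ← map_mul, h.anti, pr_neg]

lemma sq_of_pr_involution {a : SL₂F} (h1 : pr a * pr a = 1) (h : pr a ≠ 1) : a * a = -1 := by
  rw [← map_mul] at h1
  rcases pr_eq_one.1 h1 with e | e
  · exfalso
    refine h (pr_eq_one.2 ?_)
    by_cases ha : a = 1
    · exact Or.inl ha
    · exact Or.inr (eq_neg_one_of_sq_eq_one h2 (by rw [sq, e]) ha)
  · exact e

lemma isQP_of_isFourPair {a b : SL₂F} (h : IsFourPair (pr a) (pr b)) : IsQP a b := by
  have ha := sq_of_pr_involution h2 h.sqx h.nex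
  have hb := sq_of_pr_involution h2 h.sqy h.ney
  refine ⟨ha, hb, ?_⟩
  have e := h.comm
  rw [← map_mul, ← map_mul] at e
  rcases pr_eq_pr.1 e with e | e
  · exfalso
    have hmem : b ∈ Subgroup.centralizer ({a} : Set SL₂F) :=
      Subgroup.mem_centralizer_singleton_iff.2 e
    have ht : tr a ^ 2 ≠ 4 := by
      rw [tr_eq_zero_of_sq ha, show (4 : F) = 2 * 2 by norm_num, zero_pow two_ne_zero]
      exact (mul_ne_zero h2 h2).symm
    rcases eq_or_eq_inv ht hmem (by rw [tr_eq_zero_of_sq ha, tr_eq_zero_of_sq hb]) with rfl | rfl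
    · exact h.ne rfl
    · exact h.ne (by rw [inv_of_sq ha, pr_neg])
  · exact e

/-- The four-group of a pair. -/
def qFour {a b : SL₂F} (h : IsQP a b) : Subgroup PSL₂F := fourSub (h.isFourPair h2)

lemma qFour_congr {a b a' b' : SL₂F} (h : IsQP a b) (h' : IsQP a' b')
    (ha : pr a' ∈ qFour h2 h) (hb : pr b' ∈ qFour h2 h) : qFour h2 h' = qFour h2 h := by
  haveI : Finite (qFour h2 h) := Nat.finite_of_card_ne_zero (by
    rw [qFour, card_fourSub]; norm_num)
  exact Subgroup.eq_of_le_of_card_ge (fourSub_le _ ha hb) (by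
    rw [qFour, qFour, card_fourSub, card_fourSub])

lemma qFour_swap {a b : SL₂F} (h : IsQP a b) : qFour h2 h.swap = qFour h2 h :=
  qFour_congr h2 h h.swap (right_mem _) (left_mem _)

lemma qFour_map {a b a' b' : SL₂F} (h : IsQP a b) (h' : IsQP a' b') (g : SL₂F)
    (e1 : g * a * g⁻¹ = a') (e2 : g * b * g⁻¹ = b') :
    qFour h2 h' = (qFour h2 h).map (MulAut.conj (pr g)).toMonoidHom := by
  haveI : Finite (qFour h2 h) := Nat.finite_of_card_ne_zero (by
    rw [qFour, card_fourSub]; norm_num)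
  haveI : Finite ((qFour h2 h).map (MulAut.conj (pr g)).toMonoidHom) :=
    Finite.of_equiv _ ((qFour h2 h).equivMapOfInjective _ (MulAut.conj (pr g)).injective).toEquiv
  refine Subgroup.eq_of_le_of_card_ge (fourSub_le _ ⟨pr a, left_mem _, ?_⟩
    ⟨pr b, right_mem _, ?_⟩) ?_
  · show pr g * pr a * (pr g)⁻¹ = pr a'
    rw [← map_inv, ← map_mul, ← map_mul, e1]
  · show pr g * pr b * (pr g)⁻¹ = pr b'
    rw [← map_inv, ← map_mul, ← map_mul, e2]
  · rw [Subgroup.card_map_of_injective (MulAut.conj (pr g)).injective, qFour, qFour, card_fourSub,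
      card_fourSub]

/-- Every four-group of `PSL₂` comes from a pair. -/
lemma exists_qFour (V : Subgroup PSL₂F) [IsKleinFour V] :
    ∃ a b : SL₂F, ∃ h : IsQP a b, V = qFour h2 h := by
  obtain ⟨x, y, h, rfl⟩ := exists_pair V
  obtain ⟨a, rfl⟩ := pr_surjective x
  obtain ⟨b, rfl⟩ := pr_surjective y
  exact ⟨a, b, isQP_of_isFourPair h2 h, rfl⟩

/-- The pairs inside one four-group form at most the two classes of `(a, b)` and `(b, a)`. -/
lemma conj2_of_mem {a b c d : SL₂F} (h : IsQP a b) (h' : IsQP c d) (hc : pr c ∈ qFour h2 h)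
    (hd : pr d ∈ qFour h2 h) : Conj2 (a, b) (c, d) ∨ Conj2 (b, a) (c, d) := by
  have hne := h'.isFourPair h2
  have hab : IsQP b (a * b) := isQP_of_conj2 h2 h (h.conj2_cycle h2)
  have hab2 : IsQP (a * b) a := by
    have h3 := isQP_of_conj2 h2 hab (hab.conj2_cycle h2)
    simp only at h3
    have e : b * (a * b) = a := by
      rw [← mul_assoc, h.anti, neg_mul, mul_assoc, h.sqb, mul_neg, mul_one, neg_neg]
    rwa [e] at h3
  have cyc1 : Conj2 (a, b) (b, a * b) := h.conj2_cycle h2
  have cyc2 : Conj2 (a, b) (a * b, a) := by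
    refine cyc1.trans ?_
    have h3 := hab.conj2_cycle h2
    have e : b * (a * b) = a := by
      rw [← mul_assoc, h.anti, neg_mul, mul_assoc, h.sqb, mul_neg, mul_one, neg_neg]
    rwa [e] at h3
  have hba : b * a = -(a * b) := h.anti
  have d1 : Conj2 (b, a) (a, b * a) := h.swap.conj2_cycle h2
  have d1' : Conj2 (b, a) (a, a * b) := by
    have h3 := (isQP_of_conj2 h2 h.swap d1).conj2_neg_right
    simp only at h3
    rw [hba, neg_neg] at h3
    exact (by rw [hba] at d1; exact d1 : Conj2 (b, a) (a, -(a * b))).trans h3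
  have d2 : Conj2 (b, a) (a * b, b) := by
    have hq : IsQP a (a * b) := isQP_of_conj2 h2 h.swap d1'
    have h3 := hq.conj2_cycle h2
    have e : a * (a * b) = -b := by rw [← mul_assoc, h.sqa, neg_one_mul]
    rw [e] at h3
    have h4 := (isQP_of_conj2 h2 hq h3).conj2_neg_right
    simp only [neg_neg] at h4
    exact d1'.trans (h3.trans h4)
  have sgn : ∀ {x y x' y' : SL₂F}, IsQP x y → pr x' = pr x → pr y' = pr y →
      Conj2 (x, y) (x', y') := fun {x y x' y'} hxy ex ey =>
    hxy.conj2_signs ((pr_eq_pr.1 ex.symm)) (pr_eq_pr.1 ey.symm)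
  rcases hc with hc | hc | hc | hc <;> rcases hd with hd | hd | hd | hd
  all_goals first
    | exact absurd hc hne.nex
    | exact absurd hd hne.ney
    | exact absurd (hc.trans hd.symm) hne.ne
    | skip
  all_goals (try rw [← map_mul] at hc)
  all_goals (try rw [← map_mul] at hd)
  · exact Or.inl (sgn h hc hd)
  · exact Or.inr (d1'.trans (sgn (isQP_of_conj2 h2 h.swap d1') hc hd))
  · exact Or.inr (sgn h.swap hc hd)
  · exact Or.inl (cyc1.trans (sgn hab hc hd))
  · exact Or.inl (cyc2.trans (sgn hab2 hc hd))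
  · exact Or.inr (d2.trans (sgn (isQP_of_conj2 h2 h.swap d2) hc hd))

/-- The centraliser of a four-group is itself. -/
lemma mem_qFour_of_commute {a b : SL₂F} (h : IsQP a b) {z : PSL₂F} (ha : Commute z (pr a))
    (hb : Commute z (pr b)) : z ∈ qFour h2 h := by
  obtain ⟨g, rfl⟩ := pr_surjective z
  have ea := ha.eq
  have eb := hb.eq
  rw [← map_mul, ← map_mul] at ea eb
  have key : ∀ w : SL₂F, (w = 1 ∨ w = a ∨ w = b ∨ w = a * b) → w * g * a = a * (w * g) →
      w * g * b = b * (w * g) → pr g ∈ qFour h2 h := by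
    intro w hw e1 e2
    have hc : pr (w * g) = 1 := by
      rcases eq_one_or_neg_one_of_center h2 (h.mem_center_of_commute h2 e1 e2) with e | e
      · exact pr_eq_one.2 (Or.inl e)
      · exact pr_eq_one.2 (Or.inr e)
    rw [map_mul] at hc
    rw [eq_inv_of_mul_eq_one_right hc]
    refine Subgroup.inv_mem _ ?_
    rcases hw with e | e | e | e <;> rw [e]
    · rw [map_one]; exact Subgroup.one_mem _
    · exact left_mem _
    · exact right_mem _
    · rw [map_mul]; exact Subgroup.mul_mem _ (left_mem _) (right_mem _)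
  have hba := h.anti
  have hab : a * b = -(b * a) := by rw [hba, neg_neg]
  rcases pr_eq_pr.1 ea with ea | ea <;> rcases pr_eq_pr.1 eb with eb | eb
  · exact key 1 (Or.inl rfl) (by rw [one_mul, ea]) (by rw [one_mul, eb])
  · refine key a (Or.inr (Or.inl rfl)) (by rw [mul_assoc, ea]) ?_
    rw [← mul_assoc b, hba, mul_assoc a g, neg_mul, mul_assoc, eb, mul_neg, neg_neg]
  · refine key b (Or.inr (Or.inr (Or.inl rfl))) ?_ (by rw [mul_assoc, eb])
    rw [← mul_assoc a, hab, mul_assoc b g, neg_mul, mul_assoc, ea, mul_neg, neg_neg]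
  · refine key (a * b) (Or.inr (Or.inr (Or.inr rfl))) ?_ ?_
    · have e3 : a * (a * b) = -(a * b * a) := by
        rw [mul_assoc a b a, hba, mul_neg, neg_neg]
      rw [← mul_assoc a (a * b) g, e3, mul_assoc (a * b) g a, neg_mul, mul_assoc (a * b) a g, ea,
        mul_neg, neg_neg]
    · have e3 : b * (a * b) = -(a * b * b) := by rw [← mul_assoc, hba, neg_mul]
      rw [← mul_assoc b (a * b) g, e3, mul_assoc (a * b) g b, neg_mul, mul_assoc (a * b) b g, eb,
        mul_neg, neg_neg]

lemma eq_one_of_pow_five {a b : SL₂F} (h : IsQP a b) (z : PSL₂F) (hz : z ^ 5 = 1)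
    (ha : Commute z (pr a)) (hb : Commute z (pr b)) : z = 1 := by
  have hm := sq_eq_one_of_mem _ (mem_qFour_of_commute h2 h ha hb)
  calc z = z * (z * z) * (z * z) := by rw [hm, mul_one, mul_one]
    _ = z ^ 5 := by simp [pow_succ, mul_assoc]
    _ = 1 := hz

/-- The generator of the `A₄`. -/
lemma cyc_data {a b : SL₂F} (h : IsQP a b) :
    pr (cyc h2 h) ^ 3 = 1 ∧ pr (cyc h2 h) * pr a * (pr (cyc h2 h))⁻¹ = pr b ∧
      pr (cyc h2 h) * pr b * (pr (cyc h2 h))⁻¹ = pr a * pr b := by
  refine ⟨?_, ?_, ?_⟩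
  · rw [← map_pow, cyc_cube]; exact pr_eq_one.2 (Or.inr rfl)
  · rw [← map_inv, ← map_mul, ← map_mul, cyc_a]
  · rw [← map_inv, ← map_mul, ← map_mul, ← map_mul, cyc_b]

end CfsgLib.PSLFours
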