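/-
`A₄` and elements of order four in `PSL₂(2ⁿ)`.
-/
import Cfsg.Agent.Lib.Parabolic.PSLFours.Projective
import Cfsg.Agent.Lib.ClassicalLinear.UnipotentTwo
import Cfsg.Agent.Lib.SL2.Unipotent

set_option autoImplicit false

open Matrix
open scoped MatrixGroups

namespace CfsgLib.PSLFours

open CfsgLib.SL2

variable {F : Type*} [Field F]

local notation "M₂" => Matrix (Fin 2) (Fin 2) F
local notation "SL₂F" => Matrix.SpecialLinearGroup (Fin 2) F
local notation "PSL₂F" => Matrix.ProjectiveSpecialLinearGroup (Fin 2) F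

variable (h2 : (2 : F) = 0)
include h2

lemma pr_injective_of_two : Function.Injective (pr (F := F)) := by
  intro g k e
  rcases pr_eq_pr.1 e with h | h
  · exact h.symm
  · rw [h]
    refine Subtype.ext ?_
    rw [Matrix.SpecialLinearGroup.coe_neg]
    ext i j
    rw [Matrix.neg_apply]
    linear_combination ((g : M₂) i j) * h2

lemma neg_one_eq_one : (-1 : SL₂F) = 1 :=
  pr_injective_of_two h2 (by rw [pr_neg])

/-- An element of order dividing four has order dividing two. -/
lemma sq_eq_one_of_pow_four {g : SL₂F} (h : g ^ 4 = 1) : g ^ 2 = 1 := by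
  have h1 := mul_self_eq g
  have hn : (-1 : M₂) = 1 := by
    have := congrArg (fun x : SL₂F => (x : M₂)) (neg_one_eq_one h2)
    simpa using this
  by_cases ht : tr g = 0
  · refine Subtype.ext ?_
    rw [Matrix.SpecialLinearGroup.coe_pow, Matrix.SpecialLinearGroup.coe_one, pow_two, h1, ht,
      zero_smul, zero_sub, hn]
  · exfalso
    -- then `g` is semisimple and the fourth power is not one
    have h4 : ((g : M₂) * (g : M₂)) * ((g : M₂) * (g : M₂)) = 1 := by
      rw [← Matrix.SpecialLinearGroup.coe_mul, ← Matrix.SpecialLinearGroup.coe_mul,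
        show g * g * (g * g) = g ^ 4 by simp [pow_succ, mul_assoc], h,
        Matrix.SpecialLinearGroup.coe_one]
    simp only [h1, sub_mul, mul_sub, smul_mul_assoc, mul_smul_comm, mul_one, one_mul,
      smul_sub, smul_smul] at h4
    have e : (tr g * tr g * tr g - 2 * tr g) • (g : M₂) = (tr g * tr g) • (1 : M₂) := by
      linear_combination (norm := module) h4
    have hd := congrArg Matrix.trace e
    rw [Matrix.trace_smul, Matrix.trace_smul, Matrix.trace_one, Fintype.card_fin] at hd
    simp only [smul_eq_mul, Matrix.trace_fin_two, Nat.cast_ofNat] at hd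
    rw [show (g : M₂) 0 0 + (g : M₂) 1 1 = tr g from rfl, h2] at hd
    exact ht (eq_zero_of_pow_eq_zero (n := 4) (by linear_combination hd))

omit h2 in
/-- The diagonal matrix `diag(c, c⁻¹)`. -/
def dg (c : F) (hc : c ≠ 0) : Matrix.SpecialLinearGroup (Fin 2) F :=
  ⟨!![c, 0; 0, c⁻¹], by simp [det_fin_two_of, hc]⟩

open CfsgLib.ClassicalLinear (upS upS_coe upS_add upS_injective)

omit h2 in
lemma dg_upS {c : F} (hc : c ≠ 0) (x : F) :
    dg c hc * upS x * (dg c hc)⁻¹ = upS (c * c * x) := by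
  refine conj_of_mul (Subtype.ext ?_)
  rw [Matrix.SpecialLinearGroup.coe_mul, Matrix.SpecialLinearGroup.coe_mul, upS_coe, upS_coe]
  simp only [dg]
  ext i j
  fin_cases i <;> fin_cases j <;> simp [Matrix.mul_apply, Fin.sum_univ_two] <;> field_simp

omit h2 in
lemma dg_cube {c : F} (hc : c ≠ 0) (h3 : c ^ 3 = 1) : dg c hc ^ 3 = 1 := by
  refine Subtype.ext ?_
  rw [Matrix.SpecialLinearGroup.coe_pow, Matrix.SpecialLinearGroup.coe_one, pow_succ, pow_two]
  simp only [dg]
  ext i j
  fin_cases i <;> fin_cases j <;> simp [Matrix.mul_apply, Fin.sum_univ_two] <;>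
    · field_simp
      first | linear_combination h3 | linear_combination (-1 : F) * h3

/-- A four-pair and an element of order three permuting it, from a cube root of unity. -/
lemma four_pair_of_root {w : F} (hw3 : w ^ 3 = 1) (hw1 : w ≠ 1) :
    ∃ x y u : PSL₂F, ∃ _ : IsFourPair x y, u ^ 3 = 1 ∧ u * x * u⁻¹ = y ∧
      u * y * u⁻¹ = x * y ∧ x = pr (upS 1) ∧ y = pr (upS (w * w)) := by
  have hw0 : w ≠ 0 := fun e => by simp [e] at hw3
  have hq : w * w + w + 1 = 0 := by
    have : (w - 1) * (w * w + w + 1) = 0 := by linear_combination hw3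
    exact (mul_eq_zero.1 this).resolve_left (sub_ne_zero.2 hw1)
  have hsq : ∀ x : F, pr (upS x) * pr (upS x) = 1 := fun x => by
    rw [← map_mul, ← upS_add, show x + x = 0 by linear_combination x * h2,
      CfsgLib.SL2.upS_zero, map_one]
  have hne : ∀ x y : F, x ≠ y → pr (upS x) ≠ pr (upS y) := fun x y hxy e =>
    hxy (upS_injective (pr_injective_of_two h2 e))
  have hne1 : ∀ x : F, x ≠ 0 → pr (upS x) ≠ 1 := fun x hx => by
    have := hne x 0 hx
    rwa [CfsgLib.SL2.upS_zero, map_one] at this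
  refine ⟨pr (upS 1), pr (upS (w * w)), pr (dg w hw0),
    ⟨hsq _, hsq _, hne1 _ one_ne_zero, hne1 _ (mul_ne_zero hw0 hw0), hne _ _ ?_, ?_⟩, ?_, ?_, ?_,
    rfl, rfl⟩
  · intro e
    exact hw1 (by linear_combination hw3 + w * e)
  · rw [← map_mul, ← map_mul, ← upS_add, ← upS_add, add_comm]
  · rw [← map_pow, dg_cube hw0 hw3, map_one]
  · rw [← map_inv, ← map_mul, ← map_mul, dg_upS, mul_one]
  · rw [← map_inv, ← map_mul, ← map_mul, dg_upS, ← map_mul, ← upS_add]
    congr 2
    linear_combination w * hw3 - hq + w * h2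

omit h2 in
/-- The cube roots of unity. -/
lemma exists_root_three [Finite F] (h3 : 3 ∣ Nat.card F - 1) : ∃ w : F, w ^ 3 = 1 ∧ w ≠ 1 := by
  classical
  have := Fintype.ofFinite F
  have : Fact (Nat.Prime 3) := ⟨Nat.prime_three⟩
  obtain ⟨g, hg⟩ := exists_prime_orderOf_dvd_card' (G := Fˣ) 3 (by rwa [Nat.card_units])
  refine ⟨(g : F), by rw [← Units.val_pow_eq_pow_val, ← hg, pow_orderOf_eq_one, Units.val_one],
    fun e => ?_⟩
  rw [Units.val_eq_one] at e
  rw [e, orderOf_one] at hg
  norm_num at hg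

/-- Without cube roots of unity there is no `A₄`. -/
lemma no_A4_data [Finite F] (h3 : ¬ 3 ∣ Nat.card F - 1) {x u : SL₂F} (hx : x * x = 1) (hx1 : x ≠ 1)
    (hu3 : u ^ 3 = 1) (hc : x * (u * x * u⁻¹) = u * x * u⁻¹ * x) : u * x * u⁻¹ = x := by
  set y := u * x * u⁻¹ with hy
  set X : M₂ := (x : M₂) - 1 with hX
  set Y : M₂ := (y : M₂) - 1 with hY
  have hxm : (x : M₂) * (x : M₂) = 1 := by
    rw [← Matrix.SpecialLinearGroup.coe_mul, hx, Matrix.SpecialLinearGroup.coe_one]
  have h2m : (1 : M₂) + 1 = 0 := by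
    rw [← one_smul F (1 : M₂), ← add_smul, show (1 : F) + 1 = 0 by linear_combination h2, zero_smul]
  have hXX : X * X = 0 := by
    rw [hX, sub_mul, mul_sub, hxm, mul_one, one_mul]
    have e2 : (2 : F) • (1 - (x : M₂)) = 0 := by rw [h2, zero_smul]
    linear_combination (norm := module) e2
  have hX0 : X ≠ 0 := fun e => hx1 (Subtype.ext (by
    rw [Matrix.SpecialLinearGroup.coe_one]; exact sub_eq_zero.1 e))
  have hns : ¬ IsScalarMat X := by
    intro hs
    obtain ⟨c, hc'⟩ := (isScalarMat_iff X).1 hs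
    rw [hc', smul_mul_assoc, mul_smul_comm, one_mul, smul_smul] at hXX
    have : c * c = 0 := by simpa using (smul_eq_zero.1 hXX).resolve_right one_ne_zero
    exact hX0 (by rw [hc', mul_self_eq_zero.1 this, zero_smul])
  have hconj : Y = (u : M₂) * X * ((u⁻¹ : SL₂F) : M₂) := by
    rw [hX, mul_sub, sub_mul, mul_one, ← Matrix.SpecialLinearGroup.coe_mul,
      ← Matrix.SpecialLinearGroup.coe_mul, ← Matrix.SpecialLinearGroup.coe_mul, mul_inv_cancel,
      Matrix.SpecialLinearGroup.coe_one, ← hy]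
  have huu : ((u⁻¹ : SL₂F) : M₂) * (u : M₂) = 1 := by
    rw [← Matrix.SpecialLinearGroup.coe_mul, inv_mul_cancel, Matrix.SpecialLinearGroup.coe_one]
  have hYY : Y * Y = 0 := by
    rw [hconj, show (u : M₂) * X * ((u⁻¹ : SL₂F) : M₂) * ((u : M₂) * X * ((u⁻¹ : SL₂F) : M₂))
      = (u : M₂) * X * (((u⁻¹ : SL₂F) : M₂) * (u : M₂)) * X * ((u⁻¹ : SL₂F) : M₂) by
        simp only [mul_assoc], huu, mul_one, mul_assoc (u : M₂) X X, hXX, mul_zero, zero_mul]
  have hXY : X * Y = Y * X := by
    have e : (x : M₂) * (y : M₂) = (y : M₂) * (x : M₂) := by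
      rw [← Matrix.SpecialLinearGroup.coe_mul, ← Matrix.SpecialLinearGroup.coe_mul, hc]
    simp only [hX, hY, sub_mul, mul_sub, one_mul, mul_one, e]
    abel
  obtain ⟨a, l, hl⟩ := (commute_iff_exists hns).1 hXY
  have ha : a = 0 := by
    have e : (a * a) • (1 : M₂) + (2 * a * l) • X = (0 : F) • (1 : M₂) + (0 : F) • X := by
      rw [hl] at hYY
      simp only [add_mul, mul_add, smul_mul_assoc, mul_smul_comm, one_mul, mul_one, hXX] at hYY
      linear_combination (norm := module) hYY
    exact mul_self_eq_zero.1 (lin_ext hns e).1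
  rw [ha, zero_smul, zero_add] at hl
  have hstep : (u : M₂) * X = l • (X * (u : M₂)) := by
    rw [← smul_mul_assoc, ← hl, hconj, mul_assoc, huu, mul_one]
  have hu3' : (u : M₂) * ((u : M₂) * (u : M₂)) = 1 := by
    rw [← Matrix.SpecialLinearGroup.coe_mul, ← Matrix.SpecialLinearGroup.coe_mul,
      ← Matrix.SpecialLinearGroup.coe_one, ← hu3]
    simp [pow_succ, mul_assoc]
  have h3X : (1 : F) • X = (l * l * l) • X := by
    rw [one_smul]
    calc X = (u : M₂) * ((u : M₂) * (u : M₂)) * X := by rw [hu3', one_mul]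
      _ = (l * l * l) • (X * ((u : M₂) * ((u : M₂) * (u : M₂)))) := by
          have k : ∀ M : M₂, (u : M₂) * (X * M) = l • (X * ((u : M₂) * M)) := fun M => by
            rw [← mul_assoc, hstep, smul_mul_assoc, mul_assoc]
          simp only [mul_assoc, hstep, k, mul_smul_comm, smul_smul]
      _ = (l * l * l) • X := by rw [hu3', mul_one]
  have hl3 : l * l * l = 1 := (smul_left_injective F hX0 h3X).symm
  have hl0 : l ≠ 0 := fun e => by simp [e] at hl3
  have hl1 : l = 1 := by
    by_contra hne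
    apply h3
    have hu3u : (Units.mk0 l hl0) ^ 3 = 1 := Units.ext (by simp [pow_succ, hl3])
    have ho : orderOf (Units.mk0 l hl0) = 3 := by
      haveI : Fact (Nat.Prime 3) := ⟨Nat.prime_three⟩
      exact orderOf_eq_prime hu3u (fun e => hne (by simpa using congrArg Units.val e))
    rw [← ho, ← Nat.card_units]
    exact orderOf_dvd_natCard _
  rw [hl1, one_smul] at hl
  exact Subtype.ext (sub_left_injective hl)

end CfsgLib.PSLFours
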