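/-
Number and normalisers of the four-groups of `PSL₂`, odd `q`.
-/
import Cfsg.Agent.Lib.Parabolic.PSLFours.Projective
import Cfsg.Agent.Lib.SmallGroups.Order24

set_option autoImplicit false

open Matrix
open scoped MatrixGroups

namespace CfsgLib.PSLFours

open CfsgLib.SL2

variable {F : Type*} [Field F]

local notation "SL₂F" => Matrix.SpecialLinearGroup (Fin 2) F
local notation "PSL₂F" => Matrix.ProjectiveSpecialLinearGroup (Fin 2) F

/-- The ordered pairs of distinct non-identity elements. -/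
abbrev Six {G : Type*} [Group G] (V : Subgroup G) : Type _ :=
  {p : V × V // p.1 ≠ 1 ∧ p.2 ≠ 1 ∧ p.1 ≠ p.2}

lemma card_six {G : Type*} [Group G] (V : Subgroup G) (hV : Nat.card V = 4) :
    Nat.card (Six V) = 6 := by
  classical
  haveI : Finite V := Nat.finite_of_card_ne_zero (by omega)
  haveI := Fintype.ofFinite V
  rw [Nat.card_eq_fintype_card, Fintype.card_subtype,
    show (Finset.univ.filter fun p : V × V => p.1 ≠ 1 ∧ p.2 ≠ 1 ∧ p.1 ≠ p.2)
      = (Finset.univ.erase (1 : V)).offDiag by ext p; simp [Finset.mem_offDiag],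
    Finset.offDiag_card, Finset.card_erase_of_mem (Finset.mem_univ _), Finset.card_univ,
    ← Nat.card_eq_fintype_card, hV]

lemma isFourPair_of_six {G : Type*} [Group G] {x y : G} (h : IsFourPair x y) {c d : G}
    (hc : c ∈ fourSub h) (hd : d ∈ fourSub h) (h1 : c ≠ 1) (h2' : d ≠ 1) (hne : c ≠ d) :
    IsFourPair c d := by
  refine ⟨sq_eq_one_of_mem h hc, sq_eq_one_of_mem h hd, h1, h2', hne, ?_⟩
  have e := sq_eq_one_of_mem h ((fourSub h).mul_mem hc hd)
  calc c * d = c * d * ((d * c) * (d * c)) := by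
        rw [sq_eq_one_of_mem h ((fourSub h).mul_mem hd hc), mul_one]
    _ = c * (d * d) * c * (d * c) := by group
    _ = d * c := by rw [sq_eq_one_of_mem h hd, mul_one, sq_eq_one_of_mem h hc, one_mul]

variable (h2 : (2 : F) ≠ 0)
include h2

variable [Finite F]

theorem card_fours_mul :
    24 * Nat.card {V : Subgroup PSL₂F // IsKleinFour V} = Nat.card SL₂F := by
  classical
  have := Fintype.ofFinite SL₂F
  have := Fintype.ofFinite PSL₂F
  rw [← card_qp h2]
  let ψ : {p : SL₂F × SL₂F // IsQP p.1 p.2} → {V : Subgroup PSL₂F // IsKleinFour V} := fun p =>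
    ⟨qFour h2 p.2, isKleinFour_fourSub _⟩
  haveI : Fintype {V : Subgroup PSL₂F // IsKleinFour V} := Fintype.ofFinite _
  have hfib : ∀ V : {V : Subgroup PSL₂F // IsKleinFour V}, Nat.card {p // ψ p = V} = 24 := by
    rintro ⟨V, hV⟩
    obtain ⟨a, b, h, rfl⟩ := exists_qFour h2 V
    set sec := Function.surjInv (pr_surjective (F := F))
    have hsec : ∀ z, pr (sec z) = z := Function.surjInv_eq pr_surjective
    let sgn : Bool → SL₂F → SL₂F := fun e g => if e then g else -g
    have hsgn : ∀ e g, pr (sgn e g) = pr g := fun e g => by cases e <;> simp [sgn, pr_neg]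
    have hqp : ∀ (p : Six (qFour h2 h)) (e f : Bool),
        IsQP (sgn e (sec p.1.1)) (sgn f (sec p.1.2)) := fun p e f =>
      isQP_of_isFourPair h2 (by
        rw [hsgn, hsgn, hsec, hsec]
        exact isFourPair_of_six _ p.1.1.2 p.1.2.2 (fun e => p.2.1 (Subtype.ext e))
          (fun e => p.2.2.1 (Subtype.ext e)) (fun e => p.2.2.2 (Subtype.ext e)))
    let Φ : Six (qFour h2 h) × Bool × Bool → {p // ψ p = ⟨qFour h2 h, hV⟩} := fun t =>
      ⟨⟨(sgn t.2.1 (sec t.1.1.1), sgn t.2.2 (sec t.1.1.2)), hqp t.1 t.2.1 t.2.2⟩,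
        Subtype.ext (qFour_congr h2 h (hqp t.1 t.2.1 t.2.2)
          (by rw [hsgn, hsec]; exact t.1.1.1.2) (by rw [hsgn, hsec]; exact t.1.1.2.2))⟩
    have hbij : Function.Bijective Φ := by
      refine ⟨fun t t' e => ?_, fun p => ?_⟩
      · have e1 := congrArg (fun p => p.1.1) e
        simp only [Φ, Prod.mk.injEq] at e1
        have x1 : t.1.1.1 = t'.1.1.1 := Subtype.ext (by
          have := congrArg pr e1.1; rwa [hsgn, hsgn, hsec, hsec] at this)
        have x2 : t.1.1.2 = t'.1.1.2 := Subtype.ext (by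
          have := congrArg pr e1.2; rwa [hsgn, hsgn, hsec, hsec] at this)
        have hs : ∀ (g : SL₂F) (e f : Bool), sgn e g = sgn f g → e = f := fun g e f hef => by
          cases e <;> cases f <;> simp_all [sgn, neg_ne_self h2 g, (neg_ne_self h2 g).symm]
        rw [x1, x2] at e1
        exact Prod.ext (Subtype.ext (Prod.ext x1 x2))
          (Prod.ext (hs _ _ _ e1.1) (hs _ _ _ e1.2))
      · obtain ⟨⟨⟨c, d⟩, hcd⟩, hV'⟩ := p
        have e : qFour h2 hcd = qFour h2 h := congrArg Subtype.val hV'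
        have hP := hcd.isFourPair h2
        have key : ∀ g : SL₂F, ∃ e : Bool, sgn e (sec (pr g)) = g := fun g => by
          rcases pr_eq_pr.1 (hsec (pr g)) with e | e
          · exact ⟨true, e.symm⟩
          · exact ⟨false, e.symm⟩
        obtain ⟨s1, hs1⟩ := key c
        obtain ⟨s2, hs2⟩ := key d
        exact ⟨(⟨(⟨pr c, e ▸ left_mem _⟩, ⟨pr d, e ▸ right_mem _⟩),
          fun x => hP.nex (congrArg Subtype.val x), fun x => hP.ney (congrArg Subtype.val x),
          fun x => hP.ne (congrArg Subtype.val x)⟩, s1, s2),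
          Subtype.ext (Subtype.ext (Prod.ext hs1 hs2))⟩
    rw [← Nat.card_congr (Equiv.ofBijective Φ hbij), Nat.card_prod, Nat.card_prod,
      card_six (qFour h2 h) (card_fourSub (h.isFourPair h2))]
    simp
  rw [← Nat.card_congr (Equiv.sigmaFiberEquiv ψ), Nat.card_sigma,
    Finset.sum_congr rfl fun V _ => hfib V, Finset.sum_const, Finset.card_univ,
    ← Nat.card_eq_fintype_card, smul_eq_mul, mul_comm]

/-- When `2` is a square the normaliser of a four-group is `S₄`. -/
theorem exists_S4 (hsq : IsSquare (2 : F)) :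
    ∃ H : Subgroup PSL₂F, Nonempty (H ≃* Equiv.Perm (Fin 4)) := by
  classical
  have := Fintype.ofFinite PSL₂F
  obtain ⟨a, b, h⟩ := exists_qp h2 (F := F)
  set V := qFour h2 h with hVdef
  set N := Subgroup.normalizer (V : Set PSL₂F) with hN
  have hx : pr a ∈ V := left_mem _
  have hy : pr b ∈ V := right_mem _
  have hP := h.isFourPair h2
  have hconj : ∀ g ∈ N, ∀ v ∈ V, g * v * g⁻¹ ∈ V := fun g hg v hv =>
    (Subgroup.mem_normalizer_iff.1 hg v).1 hv
  have hcancel : ∀ {g u v : PSL₂F}, g * u * g⁻¹ = g * v * g⁻¹ → u = v := fun {g u v} e =>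
    mul_left_cancel (mul_right_cancel e)
  let Φ : N → Six V := fun g =>
    ⟨(⟨g.1 * pr a * g.1⁻¹, hconj _ g.2 _ hx⟩, ⟨g.1 * pr b * g.1⁻¹, hconj _ g.2 _ hy⟩),
      fun e => hP.nex (by
        have e' : g.1 * pr a * g.1⁻¹ = g.1 * 1 * g.1⁻¹ := by simpa using congrArg Subtype.val e
        exact hcancel e'),
      fun e => hP.ney (by
        have e' : g.1 * pr b * g.1⁻¹ = g.1 * 1 * g.1⁻¹ := by simpa using congrArg Subtype.val e
        exact hcancel e'),
      fun e => hP.ne (hcancel (congrArg Subtype.val e))⟩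
  have hsurj : Function.Surjective Φ := by
    rintro ⟨⟨⟨x, hxV⟩, ⟨y, hyV⟩⟩, h1, h3, h4⟩
    obtain ⟨c, rfl⟩ := pr_surjective x
    obtain ⟨d, rfl⟩ := pr_surjective y
    have hcd : IsQP c d := isQP_of_isFourPair h2 (isFourPair_of_six _ hxV hyV
      (fun e => h1 (Subtype.ext e)) (fun e => h3 (Subtype.ext e)) (fun e => h4 (Subtype.ext e)))
    obtain ⟨g, g1, g2⟩ : Conj2 (a, b) (c, d) :=
      (conj2_of_mem h2 h hcd hxV hyV).elim id (fun e => (h.conj2_swap hsq h2).trans e)
    have hmap := qFour_map h2 h hcd g g1 g2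
    rw [qFour_congr h2 h hcd hxV hyV] at hmap
    have hg : pr g ∈ N := by
      rw [hN, Subgroup.mem_normalizer_iff]
      intro v
      conv_rhs => rw [hVdef, hmap]
      exact (Subgroup.mem_map_iff_mem (f := (MulAut.conj (pr g)).toMonoidHom)
        (MulAut.conj (pr g)).injective).symm
    exact ⟨⟨pr g, hg⟩, Subtype.ext (Prod.ext
      (Subtype.ext (by show pr g * pr a * (pr g)⁻¹ = pr c; rw [← map_inv, ← map_mul, ← map_mul, g1]))
      (Subtype.ext (by show pr g * pr b * (pr g)⁻¹ = pr d; rw [← map_inv, ← map_mul, ← map_mul, g2])))⟩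
  have hVab : ∀ u ∈ V, ∀ v ∈ V, u * v = v * u := by
    intro u hu v hv
    calc u * v = u * v * ((v * u) * (v * u)) := by
          rw [sq_eq_one_of_mem _ (V.mul_mem hv hu), mul_one]
      _ = u * (v * v) * u * (v * u) := by group
      _ = v * u := by rw [sq_eq_one_of_mem _ hv, mul_one, sq_eq_one_of_mem _ hu, one_mul]
  have hfib : ∀ t : Six V, Nat.card {g // Φ g = t} = 4 := by
    intro t
    obtain ⟨g₀, rfl⟩ := hsurj t
    rw [← card_fourSub hP]
    have hVN : V ≤ N := Subgroup.le_normalizer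
    refine Nat.card_congr
      { toFun := fun g => ⟨g₀.1⁻¹ * g.1.1, ?_⟩
        invFun := fun v => ⟨g₀ * ⟨v.1, hVN v.2⟩, ?_⟩
        left_inv := fun g => Subtype.ext (Subtype.ext (by simp))
        right_inv := fun v => Subtype.ext (by simp) }
    · have e := g.2
      have e1 : g.1.1 * pr a * g.1.1⁻¹ = g₀.1 * pr a * g₀.1⁻¹ :=
        congrArg (fun t : Six V => (t.1.1 : PSL₂F)) e
      have e2 : g.1.1 * pr b * g.1.1⁻¹ = g₀.1 * pr b * g₀.1⁻¹ :=
        congrArg (fun t : Six V => (t.1.2 : PSL₂F)) e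
      refine mem_qFour_of_commute h2 h ?_ ?_
      · show g₀.1⁻¹ * g.1.1 * pr a = pr a * (g₀.1⁻¹ * g.1.1)
        calc g₀.1⁻¹ * g.1.1 * pr a = g₀.1⁻¹ * (g.1.1 * pr a * g.1.1⁻¹) * g.1.1 := by group
          _ = pr a * (g₀.1⁻¹ * g.1.1) := by rw [e1]; group
      · show g₀.1⁻¹ * g.1.1 * pr b = pr b * (g₀.1⁻¹ * g.1.1)
        calc g₀.1⁻¹ * g.1.1 * pr b = g₀.1⁻¹ * (g.1.1 * pr b * g.1.1⁻¹) * g.1.1 := by group
          _ = pr b * (g₀.1⁻¹ * g.1.1) := by rw [e2]; group
    · have key : ∀ u ∈ V, g₀.1 * v.1 * u * (g₀.1 * v.1)⁻¹ = g₀.1 * u * g₀.1⁻¹ := fun u hu => by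
        calc g₀.1 * v.1 * u * (g₀.1 * v.1)⁻¹ = g₀.1 * (v.1 * u) * v.1⁻¹ * g₀.1⁻¹ := by group
          _ = g₀.1 * u * g₀.1⁻¹ := by rw [hVab v.1 v.2 u hu]; group
      exact Subtype.ext (Prod.ext (Subtype.ext (key _ hx)) (Subtype.ext (key _ hy)))
  have hN24 : Nat.card N = 24 := by
    rw [← Nat.card_congr (Equiv.sigmaFiberEquiv Φ), Nat.card_sigma,
      Finset.sum_congr rfl fun t _ => hfib t, Finset.sum_const, Finset.card_univ,
      ← Nat.card_eq_fintype_card, card_six V (card_fourSub hP)]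
    try rfl
  refine ⟨N, CfsgLib.SmallGroups.nonempty_mulEquiv_perm_four hN24 fun g hg => ?_⟩
  -- no element of order six
  obtain ⟨gv, hgv⟩ := g
  rw [Subgroup.orderOf_mk] at hg
  set t := gv ^ 3 with htdef
  set s := gv ^ 2 with hsdef
  have hts : t * s = s * t := by rw [htdef, hsdef, ← pow_add, ← pow_add]
  have hs3 : s * s * s = 1 := by
    rw [hsdef, ← pow_add, ← pow_add, show 2 + 2 + 2 = orderOf gv by rw [hg], pow_orderOf_eq_one]
  have ht2 : t * t = 1 := by
    rw [htdef, ← pow_add, show 3 + 3 = orderOf gv by rw [hg], pow_orderOf_eq_one]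
  have ht1 : t ≠ 1 := fun e => by
    have := orderOf_dvd_of_pow_eq_one e
    rw [hg] at this; norm_num at this
  have hs1 : s ≠ 1 := fun e => by
    have := orderOf_dvd_of_pow_eq_one e
    rw [hg] at this; norm_num at this
  have htN : t ∈ N := N.pow_mem hgv 3
  have hsN : s ∈ N := N.pow_mem hgv 2
  -- an element of `V` fixed by `t` and, by conjugation, its image under `s`
  obtain ⟨v, hvV, hv1, hvt, hvs⟩ : ∃ v ∈ V, v ≠ 1 ∧ t * v * t⁻¹ = v ∧ s * v * s⁻¹ = v := by
    by_cases htV : t ∈ V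
    · exact ⟨t, htV, ht1, by rw [mul_inv_cancel_right], by rw [← hts, mul_inv_cancel_right]⟩
    · -- `t` is not in the centraliser, so moves `pr a` or `pr b`
      obtain ⟨w, hwV, hwne⟩ : ∃ w ∈ V, t * w * t⁻¹ ≠ w := by
        by_contra hc
        push Not at hc
        exact htV (mem_qFour_of_commute h2 h (mul_inv_eq_iff_eq_mul.1 (hc _ hx))
          (mul_inv_eq_iff_eq_mul.1 (hc _ hy)))
      have hw' := hconj t htN w hwV
      refine ⟨w * (t * w * t⁻¹), V.mul_mem hwV hw', ?_, ?_, ?_⟩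
      · intro e
        apply hwne
        calc t * w * t⁻¹ = w * w * (t * w * t⁻¹) := by rw [sq_eq_one_of_mem _ hwV, one_mul]
          _ = w := by rw [mul_assoc w w, e, mul_one]
      · calc t * (w * (t * w * t⁻¹)) * t⁻¹ = (t * w * t⁻¹) * (t * t * w * (t * t)⁻¹) := by group
          _ = (t * w * t⁻¹) * w := by rw [ht2, one_mul, inv_one, mul_one]
          _ = w * (t * w * t⁻¹) := hVab _ hw' _ hwV
      · set u := w * (t * w * t⁻¹) with hu
        have huV : u ∈ V := V.mul_mem hwV hw'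
        have hu1 : u ≠ 1 := fun e => hwne (by
          calc t * w * t⁻¹ = w * w * (t * w * t⁻¹) := by rw [sq_eq_one_of_mem _ hwV, one_mul]
            _ = w := by rw [mul_assoc w w, ← hu, e, mul_one])
        have hut : t * u * t⁻¹ = u := by
          rw [hu]
          calc t * (w * (t * w * t⁻¹)) * t⁻¹ = (t * w * t⁻¹) * (t * t * w * (t * t)⁻¹) := by group
            _ = (t * w * t⁻¹) * w := by rw [ht2, one_mul, inv_one, mul_one]
            _ = w * (t * w * t⁻¹) := hVab _ hw' _ hwV
        by_contra hne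
        set u' := s * u * s⁻¹ with hu'
        have hu'V : u' ∈ V := hconj s hsN u huV
        have hu'1 : u' ≠ 1 := fun e => hu1 (by
          have e' : s * u * s⁻¹ = s * 1 * s⁻¹ := by rw [← hu', e]; group
          exact hcancel e')
        have hu't : t * u' * t⁻¹ = u' := by
          calc t * u' * t⁻¹ = (t * s) * u * (t * s)⁻¹ := by rw [hu']; group
            _ = s * (t * u * t⁻¹) * s⁻¹ := by rw [hts]; group
            _ = u' := by rw [hut]
        have hPu : IsFourPair u u' :=
          isFourPair_of_six _ huV hu'V hu1 hu'1 (fun e => hne e.symm)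
        haveI : Finite V := inferInstance
        have hVeq : fourSub hPu = V := Subgroup.eq_of_le_of_card_ge
          (fourSub_le _ huV hu'V) (by rw [hVdef, qFour, card_fourSub, card_fourSub])
        have hfix : ∀ z ∈ V, Commute t z := by
          intro z hz
          rw [← hVeq] at hz
          have c1 : Commute t u := mul_inv_eq_iff_eq_mul.1 hut
          have c2 : Commute t u' := mul_inv_eq_iff_eq_mul.1 hu't
          rcases hz with e | e | e | e <;> rw [e]
          exacts [Commute.one_right t, c1, c2, c1.mul_right c2]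
        exact hwne (by rw [(hfix w hwV).eq, mul_inv_cancel_right])
  -- `s` fixes `v`, hence all of `V`
  have hsfix : ∀ w ∈ V, Commute s w := by
    intro w hwV
    by_cases hw1 : w = 1
    · rw [hw1]; exact Commute.one_right s
    by_cases hwv : w = v
    · rw [hwv]; exact mul_inv_eq_iff_eq_mul.1 hvs
    refine mul_inv_eq_iff_eq_mul.1 ?_
    have hPv : IsFourPair v w := isFourPair_of_six _ hvV hwV hv1 hw1 (Ne.symm hwv)
    have hVeq : fourSub hPv = V := Subgroup.eq_of_le_of_card_ge
      (fourSub_le _ hvV hwV) (by rw [hVdef, qFour, card_fourSub, card_fourSub])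
    have hsw := hconj s hsN w hwV
    rw [← hVeq] at hsw
    rcases hsw with e | e | e | e
    · exact absurd (hcancel (g := s) (v := 1) (by rw [e]; group)) hw1
    · exact absurd (hcancel (g := s) (v := v) (by rw [e, hvs])) hwv
    · exact e
    · exfalso
      -- `w ↦ v w ↦ w`, against `s³ = 1`
      have e2 : s * (v * w) * s⁻¹ = w := by
        calc s * (v * w) * s⁻¹ = (s * v * s⁻¹) * (s * w * s⁻¹) := by group
          _ = w := by rw [hvs, e, ← mul_assoc, hPv.sqx, one_mul]
      have e3 : s * s * s * w * (s * s * s)⁻¹ = v * w := by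
        calc s * s * s * w * (s * s * s)⁻¹ = s * (s * (s * w * s⁻¹) * s⁻¹) * s⁻¹ := by group
          _ = v * w := by rw [e, e2, e]
      rw [hs3, one_mul, inv_one, mul_one] at e3
      exact hPv.mul_ne_right e3.symm
  have hsV : s ∈ V := mem_qFour_of_commute h2 h (hsfix _ hx) (hsfix _ hy)
  apply hs1
  calc s = s * (s * s) := by rw [sq_eq_one_of_mem _ hsV, mul_one]
    _ = 1 := by rw [← mul_assoc, hs3]

end CfsgLib.PSLFours
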